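import Mathlib.GroupTheory.Index
import Mathlib.GroupTheory.Subgroup.Centralizer
import Mathlib.Algebra.Order.Floor.Semiring
import Mathlib.Algebra.Order.Archimedean.Basic
import Mathlib.Algebra.BigOperators.Ring.Finset
import Mathlib.Algebra.Order.BigOperators.Group.Finset
import Mathlib.Combinatorics.Enumerative.DoubleCounting
import Mathlib.Tactic.Linarith
import Mathlib.Tactic.FieldSimp
import Mathlib.Tactic.Positivity
import Mathlib.Tactic.Group

/-! Jordan's fan argument, part one: a Landau-type lemma on unit fractions, class counting, and fans. -/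

set_option autoImplicit false

open Subgroup Finset

namespace Cfsg.Agent.BF

universe u

theorem landau (l : ℕ) : ∀ c : ℚ, ∃ B : ℕ, ∀ {ι : Type u} (s : Finset ι) (n : ι → ℕ) (g : ℕ), s.card ≤ l → 0 < g →
    (∀ i ∈ s, n i < g) → (1 / g : ℚ) = c + ∑ i ∈ s, (1 / n i : ℚ) → g ≤ B := by
  have base : ∀ (c : ℚ) (g : ℕ), 0 < g → (1 / g : ℚ) = c → g ≤ ⌈1 / c⌉₊ := fun c g hg h => by
    rw [← h, one_div_one_div, Nat.ceil_natCast]
  induction l with
  | zero =>
    intro c
    refine ⟨⌈1 / c⌉₊, fun s n g hs hg _ h => base c g hg ?_⟩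
    rwa [card_eq_zero.1 (Nat.le_zero.1 hs), sum_empty, add_zero] at h
  | succ l ih =>
    intro c
    choose B hB using ih
    refine ⟨⌈1 / c⌉₊ + (range (⌈(l + 1 : ℚ) / (-c)⌉₊ + 1)).sup fun j => B (c + 1 / j), fun s n g hs hg hn h => ?_⟩
    classical
    by_cases h0 : ∀ i ∈ s, n i = 0
    · refine le_add_right (base c g hg ?_)
      rw [h, sum_eq_zero fun i hi => by simp [h0 i hi], add_zero]
    push Not at h0
    obtain ⟨i0, hi0, hn0⟩ := h0
    have hg' : (0 : ℚ) < 1 / g := by positivity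
    have hc : c < 0 := by
      have e1 : (1 / n i0 : ℚ) ≤ ∑ i ∈ s, (1 / n i : ℚ) :=
        single_le_sum (f := fun i => (1 / n i : ℚ)) (fun i _ => by positivity) hi0
      have e2 : (1 / g : ℚ) < 1 / n i0 :=
        one_div_lt_one_div_of_lt (by exact_mod_cast Nat.pos_of_ne_zero hn0) (by exact_mod_cast hn i0 hi0)
      linarith
    obtain ⟨i, hi, hle⟩ : ∃ i ∈ s, -c / (l + 1) ≤ (1 / n i : ℚ) := by
      by_contra hcon
      push Not at hcon
      have e1 := sum_le_card_nsmul s (fun i => (1 / n i : ℚ)) _ fun i hi => (hcon i hi).le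
      have e2 : (s.card : ℚ) ≤ l + 1 := by exact_mod_cast hs
      have e3 : (0 : ℚ) ≤ -c / (l + 1) := div_nonneg (by linarith) (by positivity)
      have e4 : (l + 1 : ℚ) * (-c / (l + 1)) = -c := by field_simp
      rw [nsmul_eq_mul] at e1
      nlinarith
    have hpos : (0 : ℚ) < -c / (l + 1) := div_pos (by linarith) (by positivity)
    have hni : (n i : ℚ) ≤ (l + 1) / (-c) := by
      have e0 : (0 : ℚ) < n i := by
        rcases Nat.eq_zero_or_pos (n i) with e | e
        · rw [e] at hle; simp at hle hpos; linarith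
        · exact_mod_cast e
      rw [le_div_iff₀ (by linarith)]
      rw [div_le_div_iff₀ (by positivity) e0] at hle
      linarith
    refine le_add_left (le_trans ?_ (le_sup (f := fun j : ℕ => B (c + 1 / j)) (b := n i) ?_))
    · refine hB _ (s.erase i) n g (by rw [card_erase_of_mem hi]; omega) hg (fun j hj => hn j (mem_of_mem_erase hj)) ?_
      rw [h, add_assoc, add_sum_erase s (fun i => (1 / n i : ℚ)) hi]
    · rw [mem_range, Nat.lt_succ_iff]
      exact_mod_cast hni.trans (Nat.le_ceil _)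

variable {G : Type*} [Group G]

open Classical in
theorem count [Fintype G] {X : Type*} (Y : Finset G) (hY : ∀ x g, g ∈ Y → x * g * x⁻¹ ∈ Y) (τ : G → X)
    (hτ : ∀ x g h, τ g = τ h → τ (x * g * x⁻¹) = τ (x * h * x⁻¹)) :
    ∃ (R : Finset G) (e : G → ℕ), R ⊆ Y ∧ Y.card = ∑ r ∈ R, e r ∧ ∀ r ∈ R, ∀ S : Subgroup G,
      (∀ x, x ∈ S ↔ τ (x * r * x⁻¹) = τ r) → e r * Nat.card S = Nat.card G * (Y.filter fun g => τ g = τ r).card := by
  let s : Setoid G := ⟨fun g h => ∃ x, τ (x * g * x⁻¹) = τ h, fun g => ⟨1, by simp⟩,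
    fun {g h} ⟨x, hx⟩ => ⟨x⁻¹, by have := hτ x⁻¹ _ _ hx; simpa [mul_assoc] using this.symm⟩,
    fun {g h k} ⟨x, hx⟩ ⟨y, hy⟩ => ⟨y * x, by have := hτ y _ _ hx; simpa [mul_assoc] using this.trans hy⟩⟩
  have hrep : ∀ q : Quotient s, ∃ r : G, q ∈ Y.image (Quotient.mk s) → r ∈ Y ∧ Quotient.mk s r = q := fun q => by
    by_cases h : q ∈ Y.image (Quotient.mk s)
    · obtain ⟨r, hr, e⟩ := mem_image.1 h
      exact ⟨r, fun _ => ⟨hr, e⟩⟩
    · exact ⟨1, fun h' => absurd h' h⟩
  choose rep hrep using hrep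
  refine ⟨(Y.image (Quotient.mk s)).image rep, fun r => (Y.filter fun g => Quotient.mk s g = Quotient.mk s r).card,
    fun r hr => ?_, ?_, fun r hr S hS => ?_⟩
  · obtain ⟨q, hq, rfl⟩ := mem_image.1 hr
    exact (hrep q hq).1
  · rw [sum_image fun q hq q' hq' e => by rw [← (hrep q hq).2, e, (hrep q' hq').2],
      card_eq_sum_card_image (Quotient.mk s) Y]
    exact sum_congr rfl fun q hq => by rw [(hrep q hq).2]
  · have h1 : ∀ x : G, (Y.filter fun g => τ (x * g * x⁻¹) = τ r).card = (Y.filter fun g => τ g = τ r).card := fun x => by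
      refine card_bij (fun g _ => x * g * x⁻¹) (fun g hg => ?_) (fun g _ h _ e => by simpa using e) fun g hg => ?_
      · rw [mem_filter] at hg ⊢
        exact ⟨hY x g hg.1, hg.2⟩
      · rw [mem_filter] at hg
        refine ⟨x⁻¹ * g * x, mem_filter.2 ⟨by simpa using hY x⁻¹ g hg.1, ?_⟩, by group⟩
        simpa [mul_assoc] using hg.2
    have h2 : ∀ g ∈ Y, (univ.filter fun x : G => τ (x * g * x⁻¹) = τ r).card =
        if Quotient.mk s g = Quotient.mk s r then Nat.card S else 0 := fun g _ => by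
      split_ifs with h
      · obtain ⟨y, hy⟩ := Quotient.exact h
        rw [Nat.card_eq_fintype_card, Fintype.card_subtype]
        refine card_bij (fun x _ => x * y⁻¹) (fun x hx => ?_) (fun x _ x' _ e => by simpa using e) fun x hx => ?_
        · rw [mem_filter] at hx ⊢
          refine ⟨mem_univ _, (hS _).2 ?_⟩
          have := hτ (x * y⁻¹) _ _ hy
          rw [← this, ← hx.2]
          congr 1; group
        · rw [mem_filter] at hx
          refine ⟨x * y, mem_filter.2 ⟨mem_univ _, ?_⟩, by group⟩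
          have := hτ x _ _ hy
          rw [← (hS x).1 hx.2, ← this]
          congr 1; group
      · exact card_eq_zero.2 (filter_eq_empty_iff.2 fun x _ e => h (Quotient.sound ⟨x, e⟩))
    have h3 := sum_card_bipartiteAbove_eq_sum_card_bipartiteBelow (s := univ) (t := Y)
      (r := fun x g => τ (x * g * x⁻¹) = τ r)
    simp only [bipartiteAbove, bipartiteBelow] at h3
    rw [sum_congr rfl fun x _ => h1 x, sum_congr rfl h2, ← sum_filter, sum_const, sum_const, smul_eq_mul,
      smul_eq_mul, card_univ, ← Nat.card_eq_fintype_card] at h3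
    exact h3.symm

/-- A fan: subgroups of small index have the same centraliser. -/
def Fan (M : ℕ) (F : Subgroup G) : Prop :=
  ∀ E ≤ F, E.relIndex F ≤ M → centralizer (E : Set G) ≤ centralizer (F : Set G)

/-- The largest fan in a subgroup. -/
def T (M : ℕ) (X : Subgroup G) : Subgroup G := sSup {F | F ≤ X ∧ Fan M F}

/-- Commutative subgroup, elementwise. -/
def Ab (A : Subgroup G) : Prop := ∀ a ∈ A, ∀ b ∈ A, a * b = b * a

/-- Having an abelian subgroup of small index. -/
def Good (M : ℕ) (X : Subgroup G) : Prop := ∃ A ≤ X, Ab A ∧ A.relIndex X ≤ M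

variable {M : ℕ}

theorem T_le (X : Subgroup G) : T M X ≤ X := sSup_le fun _ h => h.1

theorem le_T {F X : Subgroup G} (h : F ≤ X) (hF : Fan M F) : F ≤ T M X := le_sSup ⟨h, hF⟩

theorem fan_T [Finite G] (X : Subgroup G) : Fan M (T M X) := fun E _ hE c hc => by
  have : T M X ≤ centralizer {c} := sSup_le fun F hF => by
    have h1 : (E ⊓ F).relIndex F ≤ M := by
      rw [inf_relIndex_right]
      exact (relIndex_le_of_le_right (le_T hF.1 hF.2) (E.subgroupOf _).index_ne_zero_of_finite).trans hE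
    have h2 := hF.2 _ inf_le_right h1 (centralizer_le (fun _ h => h.1) hc)
    exact fun x hx => mem_centralizer_singleton_iff.2 (h2 x hx)
  exact fun x hx => mem_centralizer_singleton_iff.1 (this hx)

theorem T_mono [Finite G] {X Y : Subgroup G} (h : X ≤ Y) : T M X ≤ T M Y := le_T ((T_le X).trans h) (fan_T X)

theorem fan_center : Fan M (center G) := fun _ _ _ c _ x hx => (mem_center_iff.1 hx c).symm

theorem Good.mono [Finite G] {X Y : Subgroup G} (h : Good M Y) (hXY : X ≤ Y) : Good M X := by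
  obtain ⟨A, -, hA, hi⟩ := h
  refine ⟨A ⊓ X, inf_le_right, fun a ha b hb => hA a ha.1 b hb.1, ?_⟩
  rw [inf_relIndex_right]
  exact (relIndex_le_of_le_right hXY (A.subgroupOf _).index_ne_zero_of_finite).trans hi

theorem ab_T [Finite G] {X : Subgroup G} (h : Good M X) : Ab (T M X) := by
  obtain ⟨A, -, hA, hi⟩ := h
  have h1 : (A ⊓ T M X).relIndex (T M X) ≤ M := by
    rw [inf_relIndex_right]
    exact (relIndex_le_of_le_right (T_le X) (A.subgroupOf _).index_ne_zero_of_finite).trans hi
  have h2 := fan_T X _ inf_le_right h1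
  intro a ha b hb
  exact h2 (x := b) (fun c hc => (h2 (x := c) (fun d hd => hA d hd.1 c hc.1) b hb).symm) a ha

theorem Fan.map {F : Subgroup G} (h : Fan M F) (φ : G ≃* G) : Fan M (F.map (φ : G →* G)) := fun E hE hi c hc => by
  have h1 : E.comap (φ : G →* G) ≤ F := fun x hx => by
    obtain ⟨y, hy, e⟩ := hE hx
    rwa [← φ.injective e]
  have h2 := h _ h1 (by rwa [relIndex_comap]) (x := φ.symm c) fun x hx => φ.injective (by
    simpa using hc (φ x) hx)
  rintro _ ⟨x, hx, rfl⟩
  have := congrArg φ (h2 x hx)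
  simpa using this

theorem T_map [Finite G] (X : Subgroup G) (φ : G ≃* G) : T M (X.map (φ : G →* G)) = (T M X).map (φ : G →* G) := by
  have h : ∀ (X : Subgroup G) (φ : G ≃* G), (T M X).map (φ : G →* G) ≤ T M (X.map (φ : G →* G)) := fun X φ =>
    le_T (map_mono (T_le X)) ((fan_T X).map φ)
  refine le_antisymm (fun x hx => ?_) (h X φ)
  have h1 := h _ φ.symm ⟨x, hx, rfl⟩
  rw [Subgroup.map_map, MulEquiv.coe_monoidHom_symm_comp_coe_monoidHom, Subgroup.map_id] at h1
  exact ⟨_, h1, by simp⟩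

theorem exists_fan [Finite G] (δ : Subgroup G → ℕ) (d : ℕ) (hd : ∀ X, δ X ≤ d)
    (hδ : ∀ E X : Subgroup G, E ≤ X → ¬ centralizer (E : Set G) ≤ centralizer (X : Set G) → δ X < δ E)
    (hM : 1 ≤ M) (X : Subgroup G) : (T M X).relIndex X ≤ M ^ d := by
  have h : ∀ j (X : Subgroup G), d ≤ δ X + j → ∃ F ≤ X, Fan M F ∧ F.relIndex X ≤ M ^ j := fun j => by
    induction j with
    | zero =>
      refine fun X hX => ⟨X, le_rfl, fun E hE _ => by_contra fun hc => ?_, by simp⟩
      have := hδ E X hE hc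
      have := hd E
      omega
    | succ j ih =>
      intro X hX
      by_cases hF : Fan M X
      · exact ⟨X, le_rfl, hF, by rw [relIndex_self]; exact Nat.one_le_pow _ _ hM⟩
      · simp only [Fan, not_forall] at hF
        obtain ⟨E, hE, hi, hc⟩ := hF
        obtain ⟨F, hFE, hF, hj⟩ := ih E (by have := hδ E X hE hc; omega)
        exact ⟨F, hFE.trans hE, hF, by rw [← relIndex_mul_relIndex F E X hFE hE, pow_succ]; exact Nat.mul_le_mul hj hi⟩
  obtain ⟨F, hF, hfan, hi⟩ := h d X (by omega)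
  exact (relIndex_le_of_le_left (le_T hF hfan) (F.subgroupOf _).index_ne_zero_of_finite).trans hi

end Cfsg.Agent.BF
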