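import Cfsg.Agent.BF.A
import Cfsg.Agent.FG.Derange
import Mathlib.Algebra.BigOperators.Field

/-! Jordan's fan argument, part two: the class equation bound for an abstract finite group. -/

set_option autoImplicit false

open Subgroup Finset

namespace Cfsg.Agent.BF

universe u

variable {G : Type*} [Group G] {M : ℕ}

theorem card_mul_rel {A B : Subgroup G} (h : A ≤ B) : Nat.card A * A.relIndex B = Nat.card B := by
  rw [← (A.subgroupOf B).card_mul_index, Nat.card_congr (subgroupOfEquivOfLe h).toEquiv]; rfl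

theorem rel_pos [Finite G] (A B : Subgroup G) : 0 < A.relIndex B :=
  Nat.pos_of_ne_zero (A.subgroupOf B).index_ne_zero_of_finite

theorem cent_le_norm (F : Subgroup G) : centralizer (F : Set G) ≤ normalizer (F : Set G) :=
  le_normalizer_iff.2 fun h hh k hk => by rw [← hh k hk, mul_inv_cancel_right]; exact hk

/-- The fan attached to an element. -/
def Fg (M : ℕ) (g : G) : Subgroup G := T M (centralizer {g})

theorem Fg_conj [Finite G] (x g : G) : Fg M (x * g * x⁻¹) = (Fg M g).map (MulAut.conj x : G →* G) := by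
  rw [Fg, Fg, ← T_map]
  congr 1
  ext y
  rw [← MulEquiv.toMonoidHom_eq_coe, Subgroup.mem_map_equiv, mem_centralizer_singleton_iff, mem_centralizer_singleton_iff]
  simp only [MulAut.conj_symm_apply]
  constructor <;> intro h
  · calc x⁻¹ * y * x * g = x⁻¹ * (y * (x * g * x⁻¹)) * x := by group
      _ = g * (x⁻¹ * y * x) := by rw [h]; group
  · calc y * (x * g * x⁻¹) = x * (x⁻¹ * y * x * g) * x⁻¹ := by group
      _ = x * g * x⁻¹ * y := by rw [h]; group

theorem center_le_Fg (g : G) : center G ≤ Fg M g := le_T (center_le_centralizer _) fan_center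

theorem center_map_conj (x : G) : (center G).map (MulAut.conj x : G →* G) = center G :=
  mem_normalizer_iff_map_conj_eq.1 (by rw [normalizer_eq_top]; trivial)

theorem conj_mem_center {x g : G} : x * g * x⁻¹ ∈ center G ↔ g ∈ center G :=
  ⟨fun h => by simpa [mul_assoc] using (inferInstance : (center G).Normal).conj_mem _ h x⁻¹,
    fun h => (inferInstance : (center G).Normal).conj_mem _ h x⟩

theorem Fg_conj_eq [Finite G] (x g : G) : Fg M (x * g * x⁻¹) = center G ↔ Fg M g = center G := by
  rw [Fg_conj]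
  refine ⟨fun h => map_injective (f := (MulAut.conj x : G →* G)) (MulAut.conj x).injective ?_, fun h => ?_⟩
  · rw [h, center_map_conj]
  · rw [h, center_map_conj]

theorem ab_Fg [Finite G] (h2 : ∀ F : Subgroup G, Ab F → ¬ F ≤ center G → Good M (normalizer (F : Set G))) {g : G}
    (hg : g ∉ center G) : Ab (Fg M g) := by
  refine ab_T ((h2 (zpowers g) ?_ fun h => hg (h (mem_zpowers g))).mono fun x hx => cent_le_norm _ ?_)
  · rintro _ ⟨i, rfl⟩ _ ⟨j, rfl⟩
    exact zpow_mul_comm g i j
  · rintro _ ⟨i, rfl⟩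
    exact ((Commute.zpow_right (mem_centralizer_singleton_iff.1 hx) i)).symm

theorem rel_le [Finite G] {n : ℕ} (r : G) (h1 : Set.ncard {z | z ∈ center G ∧ ∃ x, x * r * x⁻¹ = r * z} ≤ n)
    (S : Subgroup G) (hS : ∀ x ∈ S, ((x * r * x⁻¹ : G) : G ⧸ center G) = r) : (centralizer {r}).relIndex S ≤ n := by
  refine le_trans ?_ h1
  rw [← Nat.card_coe_set_eq]
  refine Nat.card_le_card_of_injective (fun q : S ⧸ (centralizer {r}).subgroupOf S =>
    (⟨r⁻¹ * (q.out * r * (q.out : G)⁻¹), QuotientGroup.eq.1 (hS _ q.out.2).symm, q.out, by group⟩ :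
      {z | z ∈ center G ∧ ∃ x, x * r * x⁻¹ = r * z})) fun q q' e => ?_
  have e1 : (q.out : G) * r * (q.out : G)⁻¹ = q'.out * r * (q'.out : G)⁻¹ := mul_left_cancel (congrArg Subtype.val e)
  rw [← q.out_eq, ← q'.out_eq]
  refine QuotientGroup.eq.2 (mem_subgroupOf.2 (mem_centralizer_singleton_iff.2 ?_))
  simp only [Subgroup.coe_mul, Subgroup.coe_inv]
  calc (q.out : G)⁻¹ * q'.out * r = (q.out : G)⁻¹ * (q'.out * r * (q'.out : G)⁻¹) * q'.out := by group
    _ = r * ((q.out : G)⁻¹ * q'.out) := by rw [← e1]; group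

open Classical in
theorem type0 [Fintype G] {n K : ℕ} (h1 : ∀ g : G, Set.ncard {z | z ∈ center G ∧ ∃ x, x * g * x⁻¹ = g * z} ≤ n)
    (h3 : ∀ X : Subgroup G, (T M X).relIndex X ≤ K) :
    Nat.card G ∣ (n * K + K).factorial * (univ.filter fun g : G => g ∉ center G ∧ Fg M g = center G).card := by
  obtain ⟨R, e, hR, hY, he⟩ := count (univ.filter fun g : G => g ∉ center G ∧ Fg M g = center G)
    (fun x g hg => by simpa [conj_mem_center, Fg_conj_eq] using hg) (fun g => (g : G ⧸ center G))
    (fun x g h e => by simp [e])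
  rw [hY, mul_sum]
  refine dvd_sum fun r hr => ?_
  have hr' : r ∉ center G ∧ Fg M r = center G := by simpa using hR hr
  let S : Subgroup G := (centralizer {(r : G ⧸ center G)}).comap (QuotientGroup.mk' (center G))
  have hS : ∀ x, x ∈ S ↔ ((x * r * x⁻¹ : G) : G ⧸ center G) = r := fun x => by
    rw [mem_comap, mem_centralizer_singleton_iff, QuotientGroup.mk_mul, QuotientGroup.mk_mul, QuotientGroup.mk_inv,
      mul_inv_eq_iff_eq_mul]
    rfl
  have h4 := he r hr S hS
  have h5 : ((univ.filter fun g : G => g ∉ center G ∧ Fg M g = center G).filter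
      fun g : G => (g : G ⧸ center G) = r).card = Nat.card (center G) := by
    rw [Nat.card_eq_fintype_card, Fintype.card_subtype]
    refine card_bij (fun g _ => r⁻¹ * g) (fun g hg => ?_) (fun g _ h _ e => by simpa using e) fun z hz => ?_
    · exact mem_filter.2 ⟨mem_univ _, QuotientGroup.eq.1 (mem_filter.1 hg).2.symm⟩
    · have hz' : z ∈ center G := (mem_filter.1 hz).2
      refine ⟨r * z, mem_filter.2 ⟨mem_filter.2 ⟨mem_univ _, fun h => hr'.1 ((mul_mem_cancel_right hz').1 h), ?_⟩,
        QuotientGroup.mk_mul_of_mem r hz'⟩, by group⟩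
      rw [← hr'.2, Fg, Fg]
      congr 1
      ext y
      rw [mem_centralizer_singleton_iff, mem_centralizer_singleton_iff, mul_assoc r, ← mem_center_iff.1 hz' y,
        ← mul_assoc, ← mul_assoc, mul_left_inj]
  have hCS : centralizer {r} ≤ S := fun x hx => (hS x).2 (by
    rw [mem_centralizer_singleton_iff.1 hx, mul_inv_cancel_right])
  have hZC : center G ≤ centralizer {r} := center_le_centralizer _
  have h6 : (center G).relIndex S ≤ n * K + K := by
    rw [← relIndex_mul_relIndex _ _ _ hZC hCS, mul_comm n]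
    refine le_add_right (Nat.mul_le_mul ?_ (rel_le r (h1 r) S fun x hx => (hS x).1 hx))
    rw [← hr'.2]; exact h3 _
  obtain ⟨c, hc⟩ := Nat.dvd_factorial (rel_pos _ _) h6
  replace h4 : e r * Nat.card S = Nat.card G * Nat.card (center G) := by rw [h4, ← h5]; congr
  rw [← card_mul_rel (hZC.trans hCS), mul_comm (Nat.card (center G)), ← mul_assoc] at h4
  refine ⟨c, ?_⟩
  rw [hc, ← Nat.eq_of_mul_eq_mul_right Nat.card_pos h4]; ring

open Classical in
theorem type1 [Fintype G] {K : ℕ} (h2 : ∀ F : Subgroup G, Ab F → ¬ F ≤ center G → Good M (normalizer (F : Set G)))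
    (h3 : ∀ X : Subgroup G, (T M X).relIndex X ≤ K) (hG : ¬ Good M (⊤ : Subgroup G)) {r : G} (hr : r ∉ center G)
    (hF : Fg M r ≠ center G) (fib : ℕ) (hfib : ((univ.filter fun g : G => g ∉ center G ∧ Fg M g ≠ center G).filter
      fun g => Fg M g = Fg M r).card = fib) :
    ∃ a q ν : ℕ, 0 < q ∧ q ≤ K ∧ ν < (center G).index ∧
      (fib : ℚ) / Nat.card (normalizer (Fg M r : Set G)) = a / q - 1 / ν ∧
      Nat.card (normalizer (Fg M r : Set G)) ≤ 2 * K * fib := by
  set F := Fg M r with hFdef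
  set N := normalizer (F : Set G)
  set A := T M N
  have hZF : center G ≤ F := center_le_Fg r
  have hN : Good M N := h2 F (ab_Fg h2 hr) fun h => hF (le_antisymm h hZF)
  have hA : Ab A := ab_T hN
  have hfan : Fan M F := fan_T _
  have hFA : F ≤ A := le_T le_normalizer hfan
  have hAN : A ≤ N := T_le _
  let S : Set G := {g | g ∈ centralizer (F : Set G) ∧ T M (centralizer {g} ⊓ A) = F}
  have hdvd : Nat.card A ∣ S.ncard := by
    refine FG.card_dvd_ncard S (fun a ha g hg => ⟨mul_mem (fun f hf => hA f (hFA hf) a ha) hg.1, ?_⟩)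
      fun a _ g _ h => by simpa using h
    rw [← hg.2]
    congr 1
    ext y
    simp only [mem_inf, mem_centralizer_singleton_iff, smul_eq_mul]
    refine and_congr_left fun hy => ?_
    rw [← mul_assoc, hA y hy a ha, mul_assoc, mul_assoc, mul_right_inj]
  have hS : ∀ g, g ∉ center G → (g ∈ S ↔ Fg M g = F) := fun g hg => by
    constructor
    · rintro ⟨h1, h4⟩
      have e1 : F ≤ Fg M g := le_T (fun f hf => mem_centralizer_singleton_iff.2 (h1 f hf)) hfan
      have e2 : Fg M g ≤ A := le_T (fun y hy => cent_le_norm F fun f hf => ab_Fg h2 hg f (e1 hf) y hy) (fan_T _)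
      exact le_antisymm (h4 ▸ le_T (le_inf (T_le _) e2) (fan_T _)) e1
    · intro h
      have e1 : F ≤ centralizer {g} := h ▸ T_le _
      exact ⟨fun f hf => mem_centralizer_singleton_iff.1 (e1 hf),
        le_antisymm ((T_mono inf_le_left).trans h.le) (le_T (le_inf e1 hFA) hfan)⟩
  have hSZ : ∀ g ∈ center G, (g ∈ S ↔ A = F) := fun g hg => by
    have e : T M (centralizer {g} ⊓ A) = A := by
      rw [centralizer_eq_top_iff_subset.2 (by simpa using hg), top_inf_eq]
      exact le_antisymm (T_le _) (le_T le_rfl (fan_T _))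
    exact ⟨fun h => e ▸ h.2, fun h => ⟨fun f _ => mem_center_iff.1 hg f, e.trans h⟩⟩
  have hfib' : (S \ center G).ncard = fib := by
    rw [← hfib, ← Set.ncard_coe_finset]
    congr 1
    ext g
    simp only [Set.mem_diff, SetLike.mem_coe, coe_filter, mem_filter, mem_univ, true_and, Set.mem_setOf_eq]
    exact ⟨fun h => ⟨⟨h.2, ((hS g h.2).1 h.1).trans_ne hF⟩, (hS g h.2).1 h.1⟩, fun h => ⟨(hS g h.1.1).2 h.2, h.1.1⟩⟩
  obtain ⟨a, ha⟩ := hdvd
  have ha0 : 0 < a := by
    have : 0 < S.ncard := (Set.ncard_pos).2 ⟨r, (hS r hr).2 rfl⟩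
    rw [ha] at this
    exact Nat.pos_of_mul_pos_left this
  have hq := card_mul_rel hAN
  have hqK : A.relIndex N ≤ K := h3 N
  have hq0 := rel_pos A N
  have hA0 : 0 < Nat.card A := Nat.card_pos
  have hZ0 : 0 < Nat.card (center G) := Nat.card_pos
  have hI : 0 < (center G).index := Nat.pos_of_ne_zero index_ne_zero_of_finite
  have e0 : Nat.card A ≤ Nat.card A * a := Nat.le_mul_of_pos_right _ ha0
  by_cases hAF : A = F
  · have e1 := Set.ncard_diff_add_ncard_of_subset (s := (center G : Set G)) (t := S) fun g hg => (hSZ g hg).2 hAF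
    rw [hfib', ha, ← Nat.card_coe_set_eq] at e1
    change fib + Nat.card (center G) = _ at e1
    have hZN : center G ≤ N := hZF.trans le_normalizer
    have e2 := card_mul_rel hZN
    have e3 := card_mul_rel (hZF.trans hFA)
    have e4 : 2 ≤ (center G).relIndex A := by
      have := rel_pos (center G) A
      have : (center G).relIndex A ≠ 1 := fun h => hF (le_antisymm (hFA.trans (relIndex_eq_one.1 h)) hZF)
      omega
    have e5 : 2 ≤ N.index := by
      have : N.index ≠ 0 := index_ne_zero_of_finite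
      have : N.index ≠ 1 := fun h => hG (index_eq_one.1 h ▸ hN)
      omega
    have e6 := rel_pos (center G) N
    refine ⟨a, A.relIndex N, (center G).relIndex N, hq0, hqK, ?_, ?_, ?_⟩
    · rw [← relIndex_mul_index hZN]; nlinarith
    · have e7 : (fib : ℚ) = Nat.card A * a - Nat.card (center G) := by
        rw [eq_sub_iff_add_eq]; exact_mod_cast e1
      rw [e7, sub_div]
      congr 1
      · rw [← hq]; push_cast; field_simp
      · rw [← e2]; push_cast; field_simp
    · have e7 : Nat.card A ≤ 2 * fib := by nlinarith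
      rw [← hq]; nlinarith
  · have e1 : S \ center G = S := by
      ext g
      exact ⟨fun h => h.1, fun h => ⟨h, fun hg => hAF ((hSZ g hg).1 h)⟩⟩
    rw [e1, ha] at hfib'
    refine ⟨a, A.relIndex N, 0, hq0, hqK, hI, ?_, ?_⟩
    · rw [← hq, ← hfib']; push_cast; field_simp; simp
    · rw [← hq]; nlinarith

theorem abstract (n M K : ℕ) : ∃ B : ℕ, ∀ (G : Type u) [Group G] [Finite G],
    (∀ g : G, Set.ncard {z | z ∈ center G ∧ ∃ x, x * g * x⁻¹ = g * z} ≤ n) →
    (∀ F : Subgroup G, Ab F → ¬ F ≤ center G → Good M (normalizer (F : Set G))) →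
    (∀ X : Subgroup G, (T M X).relIndex X ≤ K) → ∃ A : Subgroup G, Ab A ∧ A.index ≤ B := by
  classical
  choose B hB using landau.{u} (2 * K)
  set Q := (n * K + K).factorial
  refine ⟨M + (range ((2 * K + 1) * Q + 1)).sup fun b => B (1 - b / Q), fun G _ _ h1 h2 h3 => ?_⟩
  by_cases hG : Good M (⊤ : Subgroup G)
  · obtain ⟨A, -, hA, hi⟩ := hG
    exact ⟨A, hA, le_add_right (by rwa [relIndex_top_right] at hi)⟩
  haveI := Fintype.ofFinite G
  refine ⟨center G, fun a ha b _ => (mem_center_iff.1 ha b).symm, le_add_left ?_⟩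
  obtain ⟨b0, hb0⟩ := type0 h1 h3
  obtain ⟨R, e, hR, hY, he⟩ := count (univ.filter fun g : G => g ∉ center G ∧ Fg M g ≠ center G)
    (fun x g hg => by simpa [conj_mem_center, Fg_conj_eq] using hg) (Fg M)
    (fun x g h e => by rw [Fg_conj, Fg_conj, e])
  have hG0 : (0 : ℚ) < Nat.card G := by exact_mod_cast Nat.card_pos
  have hQ0 : (0 : ℚ) < Q := by exact_mod_cast Nat.factorial_pos _
  have hr : ∀ r : G, ∃ b ν : ℕ, r ∈ R → ν < (center G).index ∧ (e r : ℚ) / Nat.card G = b / Q - 1 / ν ∧
      Nat.card G ≤ 2 * K * e r := fun r => by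
    by_cases hr : r ∈ R
    · have hr' : r ∉ center G ∧ Fg M r ≠ center G := by simpa using hR hr
      obtain ⟨a, q, ν, hq0, hqK, hν, h4, h5⟩ := type1 h2 h3 hG hr'.1 hr'.2 _ rfl
      have h6 := he r hr (normalizer (Fg M r : Set G)) fun x => by rw [mem_normalizer_iff_map_conj_eq, Fg_conj]
      obtain ⟨c, hc⟩ : q ∣ Q := Nat.dvd_factorial hq0 (le_add_left hqK)
      have hN0 : 0 < Nat.card (normalizer (Fg M r : Set G)) := Nat.card_pos
      refine ⟨a * c, ν, fun _ => ⟨hν, ?_, ?_⟩⟩
      · have e1 : ((a * c : ℕ) : ℚ) / Q = a / q := by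
          rw [hc] at hQ0 ⊢
          push_cast at hQ0 ⊢
          have : (c : ℚ) ≠ 0 := fun h => by simp [h] at hQ0
          field_simp
        rw [e1, ← h4, div_eq_div_iff hG0.ne' (by exact_mod_cast hN0.ne'), mul_comm _ (Nat.card G : ℚ)]
        exact_mod_cast h6
      · refine Nat.le_of_mul_le_mul_right ?_ hN0
        rw [mul_assoc, h6]
        calc _ ≤ Nat.card G * (2 * K * _) := Nat.mul_le_mul_left _ h5
          _ = _ := by ring
    · exact ⟨0, 0, fun h => absurd h hr⟩
  choose b ν hr using hr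
  have hsum : Nat.card (center G) + ((univ.filter fun g : G => g ∉ center G ∧ Fg M g = center G).card +
      ∑ r ∈ R, e r) = Nat.card G := by
    rw [← hY, ← filter_filter, ← filter_filter, card_filter_add_card_filter_not, Nat.card_eq_fintype_card,
      Fintype.card_subtype, card_filter_add_card_filter_not, card_univ, Nat.card_eq_fintype_card]
  have hRK : R.card ≤ 2 * K := by
    have e1 := card_nsmul_le_sum R (fun r => 2 * K * e r) _ fun r h => (hr r h).2.2
    rw [← mul_sum, smul_eq_mul] at e1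
    exact Nat.le_of_mul_le_mul_right (e1.trans (Nat.mul_le_mul_left _ (by omega))) Nat.card_pos
  have hI : 0 < (center G).index := Nat.pos_of_ne_zero index_ne_zero_of_finite
  have hI' : (0 : ℚ) < (center G).index := by exact_mod_cast hI
  have heq : (1 / (center G).index : ℚ) = 1 - ((b0 + ∑ r ∈ R, b r : ℕ) : ℚ) / Q + ∑ r ∈ R, (1 / ν r : ℚ) := by
    have e1 : (1 / (center G).index : ℚ) = Nat.card (center G) / Nat.card G := by
      rw [div_eq_div_iff hI'.ne' hG0.ne', one_mul]
      exact_mod_cast (center G).card_mul_index.symm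
    have e2 : ((univ.filter fun g : G => g ∉ center G ∧ Fg M g = center G).card : ℚ) / Nat.card G = b0 / Q := by
      rw [div_eq_div_iff hG0.ne' hQ0.ne', mul_comm, mul_comm (b0 : ℚ)]
      exact_mod_cast hb0
    have e3 : ((∑ r ∈ R, e r : ℕ) : ℚ) / Nat.card G = ((∑ r ∈ R, b r : ℕ) : ℚ) / Q - ∑ r ∈ R, (1 / ν r : ℚ) := by
      push_cast
      rw [sum_div, sum_div, ← sum_sub_distrib]
      exact sum_congr rfl fun r h => (hr r h).2.1
    have e4 : (Nat.card (center G) : ℚ) / Nat.card G +
        (((univ.filter fun g : G => g ∉ center G ∧ Fg M g = center G).card : ℚ) / Nat.card G +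
        ((∑ r ∈ R, e r : ℕ) : ℚ) / Nat.card G) = 1 := by
      rw [← add_div, ← add_div, div_eq_one_iff_eq hG0.ne']
      exact_mod_cast hsum
    rw [Nat.cast_add, add_div]
    linarith
  refine (hB _ R ν _ hRK hI (fun r h => (hr r h).1) heq).trans
    (le_sup (f := fun b : ℕ => B (1 - b / Q)) (mem_range.2 (Nat.lt_succ_of_le ?_)))
  have e1 : ∑ r ∈ R, (1 / ν r : ℚ) ≤ 2 * K := by
    have := sum_le_card_nsmul R (fun r => (1 / ν r : ℚ)) 1 fun r _ => by
      rcases Nat.eq_zero_or_pos (ν r) with h | h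
      · simp [h]
      · exact div_le_one_of_le₀ (by exact_mod_cast h) (Nat.cast_nonneg _)
    rw [nsmul_eq_mul, mul_one] at this
    exact this.trans (by exact_mod_cast hRK)
  have e2 : (0 : ℚ) < 1 / (center G).index := by positivity
  have e3 : ((b0 + ∑ r ∈ R, b r : ℕ) : ℚ) / Q ≤ 2 * K + 1 := by linarith
  rw [div_le_iff₀ hQ0] at e3
  exact_mod_cast e3

end Cfsg.Agent.BF
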