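import Cfsg.Agent.BF.B
import Mathlib.RepresentationTheory.Basic
import Mathlib.LinearAlgebra.Eigenspace.Pi
import Mathlib.LinearAlgebra.Determinant
import Mathlib.GroupTheory.PGroup
import Mathlib.RingTheory.Artinian.Module
import Mathlib.GroupTheory.GroupAction.ConjAct
import Mathlib.GroupTheory.Perm.Fin

/-! Jordan's fan argument, part three: linear groups in characteristic `p` with bounded Sylow `p`-subgroups. -/

set_option autoImplicit false

open Subgroup Module

namespace Cfsg.Agent.BF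

universe u v

/-- The inductive statement. -/
def P (p m n N : ℕ) : Prop :=
  ∀ (k : Type v) [Field k] [IsAlgClosed k] [CharP k p] (V : Type v) [AddCommGroup V] [Module k V]
    [FiniteDimensional k V], finrank k V ≤ n → ∀ (G : Type u) [Group G] [Finite G] (ρ : Representation k G V),
    ¬ p ^ (m + 1) ∣ Nat.card G → ∃ A : Subgroup G, (∀ a ∈ A, ∀ b ∈ A, ρ (a * b) = ρ (b * a)) ∧ A.index ≤ N

theorem pow_mul_eq {G : Type*} [Group G] {a b c : G} (h : a * b = c * b * a) (hc : c * a = a * c) (j : ℕ) :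
    a ^ j * b = c ^ j * b * a ^ j := by
  induction j with
  | zero => simp
  | succ j ih =>
    have e : a * c ^ j = c ^ j * a := ((Commute.pow_left hc j).eq).symm
    calc a ^ (j + 1) * b = a * (a ^ j * b) := by rw [pow_succ', mul_assoc]
      _ = (a * c ^ j) * b * a ^ j := by rw [ih]; simp only [mul_assoc]
      _ = c ^ j * (a * b) * a ^ j := by rw [e]; simp only [mul_assoc]
      _ = c ^ (j + 1) * b * a ^ (j + 1) := by rw [h, pow_succ, pow_succ' a]; simp only [mul_assoc]

theorem card_le_of_pgroup {p m N : ℕ} [Fact p.Prime] {H : Type*} [Group H] [Finite H] (hH : ∀ x : H, x ^ p = 1)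
    (hd : Nat.card H ∣ N) (hN : ¬ p ^ (m + 1) ∣ N) : Nat.card H ≤ p ^ m := by
  obtain ⟨i, hi⟩ := IsPGroup.iff_card.1 (show IsPGroup p H from fun x => ⟨1, by rw [pow_one, hH]⟩)
  rw [hi] at hd ⊢
  exact Nat.pow_le_pow_right (Fact.out : p.Prime).pos (by_contra fun h => hN ((pow_dvd_pow p (by omega)).trans hd))

variable {p m n N : ℕ} {k : Type v} [Field k] [IsAlgClosed k] {V : Type v} [AddCommGroup V]
  [Module k V] [FiniteDimensional k V] {G : Type u} [Group G] [Finite G] {ρ : Representation k G V}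

theorem reducible [Fact p.Prime] [CharP k p] (ih : P.{u, v} p m n N) (hV : finrank k V ≤ n + 1)
    (hρ : Function.Injective ρ) (hG : ¬ p ^ (m + 1) ∣ Nat.card G) {W : Submodule k V} (h0 : W ≠ ⊥) (h1 : W ≠ ⊤)
    (hW : ∀ g, W ≤ W.comap (ρ g)) : ∃ A : Subgroup G, Ab A ∧ A.index ≤ p ^ m * (N * N * (p ^ m).factorial) := by
  have d1 := Submodule.finrank_lt h1
  have d2 := W.finrank_quotient_add_finrank
  have d3 : 1 ≤ finrank k W := Submodule.one_le_finrank_iff.2 h0
  obtain ⟨A1, hA1, i1⟩ := ih k W (by omega) G (ρ.subrepresentation W hW) hG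
  obtain ⟨A2, hA2, i2⟩ := ih k (V ⧸ W) (by omega) G (ρ.quotient W hW) hG
  let U : Subgroup G := (ρ.subrepresentation W hW).ker ⊓ (ρ.quotient W hW).ker
  have hU : ∀ u ∈ U, u ^ p = 1 := fun u hu => by
    have e1 : ∀ w ∈ W, ρ u w = w := fun w hw =>
      congrArg Subtype.val (LinearMap.congr_fun (MonoidHom.mem_ker.1 hu.1) ⟨w, hw⟩)
    have e2 : ∀ v, ρ u v - v ∈ W := fun v =>
      (Submodule.Quotient.eq W).1 (LinearMap.congr_fun (MonoidHom.mem_ker.1 hu.2) (Submodule.Quotient.mk v))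
    have e3 : ∀ (j : ℕ) v, ρ (u ^ j) v = v + (j : k) • (ρ u v - v) := fun j v => by
      induction j with
      | zero => simp
      | succ j ih =>
        rw [pow_succ', map_mul, Module.End.mul_apply, ih, map_add, map_smul, e1 _ (e2 v), Nat.cast_succ, add_smul,
          one_smul]
        abel
    refine hρ (LinearMap.ext fun v => ?_)
    rw [e3, CharP.cast_eq_zero, zero_smul, add_zero, map_one, Module.End.one_apply]
  have hUc : Nat.card U ≤ p ^ m := card_le_of_pgroup (fun x => Subtype.ext (hU x x.2)) (card_subgroup_dvd_card U) hG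
  let K0 : Subgroup G := (MulAut.conjNormal (H := U)).ker
  have i3 : K0.index ≤ (p ^ m).factorial := by
    rw [index_ker]
    refine (Finite.card_subtype_le _).trans ((Nat.card_le_card_of_injective _ (MulEquiv.toEquiv_injective
      (α := U) (β := U))).trans ?_)
    change Nat.card (Equiv.Perm U) ≤ _
    rw [Nat.card_perm]
    exact Nat.factorial_le hUc
  let C : Subgroup G := A1 ⊓ A2 ⊓ K0
  have i4 : C.index ≤ N * N * (p ^ m).factorial :=
    index_inf_le.trans (Nat.mul_le_mul (index_inf_le.trans (Nat.mul_le_mul i1 i2)) i3)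
  have hC : ∀ a ∈ C, ∀ b ∈ C, b * a ^ p = a ^ p * b := fun a ha b hb => by
    have e1 : a * b * (b * a)⁻¹ ∈ U := by
      refine ⟨MonoidHom.mem_ker.2 ?_, MonoidHom.mem_ker.2 ?_⟩
      · rw [map_mul, hA1 a ha.1.1 b hb.1.1, ← map_mul, mul_inv_cancel, map_one]
      · rw [map_mul, hA2 a ha.1.2 b hb.1.2, ← map_mul, mul_inv_cancel, map_one]
    have e2 := congrArg (fun φ : MulAut U => ((φ ⟨_, e1⟩ : U) : G)) (MonoidHom.mem_ker.1 ha.2)
    simp only [MulAut.conjNormal_apply, MulAut.one_apply] at e2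
    rw [mul_inv_eq_iff_eq_mul] at e2
    rw [pow_mul_eq (c := a * b * (b * a)⁻¹) (by group) e2.symm p, hU _ e1, one_mul]
  have i5 : (center C).index ≤ p ^ m := by
    refine card_le_of_pgroup (fun x => ?_) ((index_dvd_card (center C)).trans (card_subgroup_dvd_card C)) hG
    obtain ⟨a, rfl⟩ := QuotientGroup.mk_surjective x
    rw [← QuotientGroup.mk_pow, QuotientGroup.eq_one_iff, mem_center_iff]
    exact fun b => Subtype.ext (hC a a.2 b b.2)
  refine ⟨(center C).map C.subtype, ?_, by rw [index_map_subtype]; exact Nat.mul_le_mul i5 i4⟩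
  rintro _ ⟨a, ha, rfl⟩ _ ⟨b, -, rfl⟩
  exact (congrArg Subtype.val (mem_center_iff.1 ha b)).symm

omit [Finite G] in
theorem exists_weight [Nontrivial V] {F : Subgroup G} (hF : Ab F) :
    ∃ χ : F → k, ⨅ f : F, Module.End.eigenspace (ρ f) (χ f) ≠ ⊥ := by
  obtain ⟨W, ⟨h0, hW⟩, hmin⟩ := (wellFounded_lt (α := Submodule k V)).has_min
    {W | W ≠ ⊥ ∧ ∀ f ∈ F, ∀ w ∈ W, ρ f w ∈ W} ⟨⊤, top_ne_bot, fun _ _ _ _ => trivial⟩
  haveI : Nontrivial W := Submodule.nontrivial_iff_ne_bot.2 h0
  have h : ∀ f : F, ∃ μ : k, W ≤ Module.End.eigenspace (ρ f) μ := fun f => by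
    obtain ⟨μ, hμ⟩ := Module.End.exists_eigenvalue ((ρ f).restrict (hW f f.2))
    obtain ⟨w, hw, hw0⟩ := hμ.exists_hasEigenvector
    refine ⟨μ, by_contra fun hc => hmin (W ⊓ Module.End.eigenspace (ρ f) μ) ⟨fun e => hw0 ?_, fun g hg v hv => ?_⟩
      (inf_lt_left.2 hc)⟩
    · have : (w : V) ∈ W ⊓ Module.End.eigenspace (ρ f) μ :=
        ⟨w.2, Module.End.mem_eigenspace_iff.2 (congrArg Subtype.val (Module.End.mem_eigenspace_iff.1 hw))⟩
      rw [e] at this
      exact Subtype.ext this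
    · refine ⟨hW g hg v hv.1, Module.End.mem_eigenspace_iff.2 ?_⟩
      rw [← Module.End.mul_apply, ← map_mul, hF f f.2 g hg, map_mul, Module.End.mul_apply,
        Module.End.mem_eigenspace_iff.1 hv.2, map_smul]
  choose χ hχ using h
  exact ⟨χ, fun e => h0 (le_bot_iff.1 (e ▸ le_iInf hχ))⟩

theorem weights {F : Subgroup G} [F.Normal] (hF : Ab F) {f : G} (hf : f ∈ F) (hs : ∀ μ : k, ρ f ≠ μ • 1) :
    ∃ X : Subgroup G, X.index ≤ finrank k V ∧ ∃ W : Submodule k V, W ≠ ⊥ ∧ W ≠ ⊤ ∧ ∀ g ∈ X, W ≤ W.comap (ρ g) := by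
  haveI : Nontrivial V := by
    by_contra h
    rw [not_nontrivial_iff_subsingleton] at h
    exact hs 0 (Subsingleton.elim _ _)
  obtain ⟨χ0, h0⟩ := exists_weight (ρ := ρ) hF
  letI : MulAction G (F → k) :=
    { smul := fun x χ y => χ (MulAut.conjNormal x⁻¹ y)
      one_smul := fun χ => by funext y; change χ _ = _; simp
      mul_smul := fun x x' χ => by funext y; change χ _ = χ _; simp }
  let E : (F → k) → Submodule k V := fun χ => ⨅ f : F, Module.End.eigenspace (ρ f) (χ f)
  have hmap : ∀ (x : G) χ, E χ ≤ (E (x • χ)).comap (ρ x) := fun x χ v hv => by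
    simp only [E, Submodule.mem_comap, Submodule.mem_iInf, Module.End.mem_eigenspace_iff] at hv ⊢
    intro y
    have := hv (MulAut.conjNormal x⁻¹ y)
    change _ = χ (MulAut.conjNormal x⁻¹ y) • _
    rw [← map_smul, ← this, ← Module.End.mul_apply, ← Module.End.mul_apply, ← map_mul, ← map_mul]
    simp [mul_assoc]
  have hind : iSupIndep E :=
    (Module.End.independent_iInf_maxGenEigenspace_of_forall_mapsTo (fun f : F => ρ f) fun i j φ =>
      Module.End.mapsTo_maxGenEigenspace_of_comm (by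
        rw [Commute, SemiconjBy, ← map_mul, ← map_mul, hF j j.2 i i.2]) φ).mono
      fun χ => iInf_mono fun f => Module.End.eigenspace_le_maxGenEigenspace
  haveI := hind.fintypeNeBotOfFiniteDimensional
  refine ⟨MulAction.stabilizer G χ0, ?_, E χ0, h0, fun e => hs (χ0 ⟨f, hf⟩) (LinearMap.ext fun v => ?_),
    fun g hg => ?_⟩
  · rw [MulAction.index_stabilizer, ← Nat.card_coe_set_eq]
    refine le_trans ?_ hind.subtype_ne_bot_le_finrank
    rw [← Nat.card_eq_fintype_card]
    refine Nat.card_le_card_of_injective (fun χ => ⟨χ.1, ?_⟩) fun χ χ' e => Subtype.ext (Subtype.mk.inj e)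
    obtain ⟨_, x, rfl⟩ := χ
    intro e
    refine h0 (eq_bot_iff.2 fun v hv => ?_)
    have e1 := hmap x χ0 hv
    change E (x • χ0) = ⊥ at e
    rw [e, Submodule.mem_comap, Submodule.mem_bot] at e1
    have e2 := congrArg (ρ x⁻¹) e1
    rwa [← Module.End.mul_apply, ← map_mul, inv_mul_cancel, map_one, map_zero] at e2
  · have : v ∈ E χ0 := e ▸ trivial
    exact Module.End.mem_eigenspace_iff.1 ((Submodule.mem_iInf _).1 this ⟨f, hf⟩)
  · have := hmap g χ0
    rwa [MulAction.mem_stabilizer_iff.1 hg] at this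

theorem normal_case [Fact p.Prime] [CharP k p] (ih : P.{u, v} p m n N) (hV : finrank k V ≤ n + 1)
    (hρ : Function.Injective ρ) (hG : ¬ p ^ (m + 1) ∣ Nat.card G) {F : Subgroup G} [F.Normal] (hF : Ab F) {f : G}
    (hf : f ∈ F) (hs : ∀ μ : k, ρ f ≠ μ • 1) :
    ∃ A : Subgroup G, Ab A ∧ A.index ≤ p ^ m * (N * N * (p ^ m).factorial) * (n + 1) := by
  obtain ⟨X, hX, W, h0, h1, hW⟩ := weights hF hf hs
  obtain ⟨A, hA, hi⟩ := reducible (ρ := ρ.comp X.subtype) ih hV (hρ.comp X.subtype_injective)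
    (fun h => hG (h.trans (card_subgroup_dvd_card X))) h0 h1 fun g => hW g g.2
  refine ⟨A.map X.subtype, ?_, by rw [index_map_subtype]; exact Nat.mul_le_mul hi (hX.trans hV)⟩
  rintro _ ⟨a, ha, rfl⟩ _ ⟨b, hb, rfl⟩
  exact congrArg Subtype.val (hA a ha b hb)

theorem step (p m n N : ℕ) [Fact p.Prime] (ih : P.{u, v} p m n N) : ∃ N', P.{u, v} p m (n + 1) N' := by
  set M := p ^ m * (N * N * (p ^ m).factorial) * (n + 1) + 1 with hM
  obtain ⟨B, hB⟩ := abstract.{u} (n + 1) M (M ^ ((n + 1) * (n + 1)))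
  have key : ∀ (k : Type v) [Field k] [IsAlgClosed k] [CharP k p] (V : Type v) [AddCommGroup V] [Module k V]
      [FiniteDimensional k V], finrank k V = n + 1 → ∀ (G : Type u) [Group G] [Finite G] (ρ : Representation k G V),
      Function.Injective ρ → ¬ p ^ (m + 1) ∣ Nat.card G → ∃ A : Subgroup G, Ab A ∧ A.index ≤ B + M := by
    intro k _ _ _ V _ _ _ hV G _ _ ρ hρ hG
    by_cases hZ : ∀ z ∈ center G, ∃ μ : k, ρ z = μ • 1
    swap
    · push Not at hZ
      obtain ⟨z, hz, hs⟩ := hZ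
      obtain ⟨A, hA, hi⟩ := normal_case ih hV.le hρ hG (F := center G)
        (fun a ha b _ => (mem_center_iff.1 ha b).symm) hz hs
      exact ⟨A, hA, by omega⟩
    refine (hB G (fun g => ?_) (fun F hF hFZ => ?_) fun X => ?_).imp fun A h => ⟨h.1, le_add_right h.2⟩
    · classical
      choose! μ hμ using hZ
      refine (Set.ncard_le_ncard_of_injOn (t := (Polynomial.nthRoots (n + 1) (1 : k)).toFinset) μ ?_ ?_).trans ?_
      · rintro z ⟨hz, x, hx⟩
        rw [Finset.mem_coe, Multiset.mem_toFinset, Polynomial.mem_nthRoots (Nat.succ_pos n)]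
        have e1 := congrArg ((LinearMap.det.comp ρ).toHomUnits) hx
        rw [map_mul, map_mul, map_mul, map_inv, mul_inv_cancel_comm, left_eq_mul] at e1
        have e2 : LinearMap.det (ρ z) = 1 := congrArg Units.val e1
        rwa [hμ z hz, LinearMap.det_smul, map_one, mul_one, hV] at e2
      · rintro z ⟨hz, -⟩ z' ⟨hz', -⟩ e
        exact hρ (by rw [hμ z hz, hμ z' hz', e])
      · rw [Set.ncard_coe_finset]
        exact (Multiset.toFinset_card_le _).trans (Polynomial.card_nthRoots _ _)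
    · obtain ⟨f, hf, hfZ⟩ := SetLike.not_le_iff_exists.1 hFZ
      obtain ⟨A, hA, hi⟩ := normal_case (ρ := ρ.comp (normalizer (F : Set G)).subtype) ih hV.le
        (hρ.comp (subtype_injective _)) (fun h => hG (h.trans (card_subgroup_dvd_card _)))
        (F := F.subgroupOf (normalizer (F : Set G))) (fun a ha b hb => Subtype.ext (hF a ha b hb))
        (f := ⟨f, le_normalizer hf⟩) hf fun μ e => hfZ (mem_center_iff.2 fun g => hρ (by
          change ρ f = _ at e
          rw [map_mul, map_mul, e, mul_smul_comm, smul_mul_assoc, mul_one, one_mul]))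
      refine ⟨A.map (normalizer (F : Set G)).subtype, map_subtype_le _, ?_, ?_⟩
      · rintro _ ⟨a, ha, rfl⟩ _ ⟨b, hb, rfl⟩
        exact congrArg Subtype.val (hA a ha b hb)
      · rw [relIndex, subgroupOf, comap_map_eq_self_of_injective (subtype_injective _)]
        omega
    · refine exists_fan (fun X => finrank k (Subalgebra.toSubmodule (Subalgebra.centralizer k (ρ '' X)))) _
        (fun X => ?_) (fun E X hE hc => ?_) (by omega) X
      · refine (Submodule.finrank_le _).trans ?_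
        rw [Module.finrank_linearMap, hV]
      · obtain ⟨c, hc1, hc2⟩ := SetLike.not_le_iff_exists.1 hc
        refine Submodule.finrank_lt_finrank_of_lt (SetLike.lt_iff_le_and_exists.2 ⟨fun T hT => ?_, ρ c, ?_, fun h => ?_⟩)
        · exact fun y ⟨x, hx, e⟩ => hT y ⟨x, hE hx, e⟩
        · rintro _ ⟨x, hx, rfl⟩
          rw [← map_mul, ← map_mul, hc1 x hx]
        · exact hc2 fun x hx => hρ (by rw [map_mul, map_mul]; exact h _ ⟨x, hx, rfl⟩)
  refine ⟨N + (B + M), fun k _ _ _ V _ _ _ hV G _ _ ρ hG => ?_⟩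
  by_cases hV' : finrank k V ≤ n
  · obtain ⟨A, hA, hi⟩ := ih k V hV' G ρ hG
    exact ⟨A, hA, by omega⟩
  obtain ⟨A, hA, hi⟩ := key k V (by omega) (G ⧸ ρ.ker) (QuotientGroup.lift ρ.ker ρ le_rfl)
    ((injective_iff_map_eq_one _).2 fun x hx => by
      obtain ⟨g, rfl⟩ := QuotientGroup.mk_surjective x
      exact (QuotientGroup.eq_one_iff g).2 hx)
    fun h => hG (h.trans (card_quotient_dvd_card _))
  refine ⟨A.comap (QuotientGroup.mk' _), fun a ha b hb => ?_, ?_⟩
  · exact congrArg (QuotientGroup.lift ρ.ker ρ le_rfl) (hA _ ha _ hb)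
  · rw [index_comap_of_surjective _ (QuotientGroup.mk'_surjective _)]
    omega

theorem main (p m n : ℕ) [Fact p.Prime] : ∃ N, P.{u, v} p m n N := by
  induction n with
  | zero =>
    refine ⟨1, fun k _ _ _ V _ _ _ hV G _ _ ρ _ => ⟨⊤, fun a _ b _ => ?_, by simp⟩⟩
    haveI : Subsingleton V := (finrank_zero_iff (R := k)).1 (by omega)
    exact Subsingleton.elim _ _
  | succ n ih =>
    obtain ⟨N, h⟩ := ih
    exact step p m n N h

end Cfsg.Agent.BF
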